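import Cfsg.Agent.Classical.Unitary.Anti.Moves
import Cfsg.Agent.Fus.Group
import Cfsg.Agent.Fus.Centric
import Cfsg.Agent.Fus.Saturation
import Cfsg.Agent.Fus.NormalOverSylow
import Mathlib.LinearAlgebra.Matrix.Block

/-!
The fusion system at the defining characteristic of a quotient of `SU_n(q)` by a central subgroup
(`n ≥ 4`) is simple.
-/

set_option autoImplicit false

namespace CfsgLib.Unitary.Anti.FusionSimple

open Matrix Cfsg Cfsg.FusionSystem CfsgLib.Unitary CfsgLib.Fus CfsgLib.Unitary.Anti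

variable {F : Type*} [Field F] [Fintype F] {n q : ℕ} (hF : Fintype.card F = q ^ 2)


theorem mem_borel_of_diag {g : ↥(SUJ n F q)} (h : ∀ s, ∃ r : F, av g (bv s) = r • bv s) : g ∈ (borel : Subgroup ↥(SUJ n F q)) := by
  refine mem_par_of_bv fun s t hst => ?_
  obtain ⟨r, hr⟩ := h s
  rw [hr, Pi.smul_apply, bv_ne (fun e => by rw [e] at hst; exact lt_irrefl _ hst), smul_zero]

theorem ent_of_diag {g : ↥(SUJ n F q)} {s : Fin n} {r : F} (h : av g (bv s) = r • bv s) : ent g s s = r := by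
  rw [← av_bv, h, Pi.smul_apply, bv_self, smul_eq_mul, mul_one]

theorem ent_inv_self {g : ↥(SUJ n F q)} (hg : g ∈ (borel : Subgroup ↥(SUJ n F q))) (a : Fin n) :
    ent g⁻¹ a a = (ent g a a)⁻¹ := by
  refine eq_inv_of_mul_eq_one_left ?_
  rw [← diag_mul ((borel : Subgroup ↥(SUJ n F q)).inv_mem hg) hg, inv_mul_cancel, ent_one, Matrix.one_apply_eq]

theorem prod_diag {g : ↥(SUJ n F q)} (hg : g ∈ (borel : Subgroup ↥(SUJ n F q))) : ∏ a, ent g a a = 1 := by
  have h := (g : SpecialLinearGroup (Fin n) F).2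
  rwa [Matrix.det_of_upperTriangular (fun a b hab => hg a b hab)] at h

theorem diag_ne_zero {g : ↥(SUJ n F q)} (hg : g ∈ (borel : Subgroup ↥(SUJ n F q))) (a : Fin n) : ent g a a ≠ 0 := fun h => by
  have := diag_mul ((borel : Subgroup ↥(SUJ n F q)).inv_mem hg) hg a
  rw [inv_mul_cancel, h, mul_zero, ent_one, Matrix.one_apply_eq] at this
  exact one_ne_zero this

include hF

theorem diag_rev {g : ↥(SUJ n F q)} (hg : g ∈ (borel : Subgroup ↥(SUJ n F q))) (a : Fin n) :
    ent g (Fin.rev a) (Fin.rev a) = ((ent g a a)⁻¹) ^ q := by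
  rw [ent_inv_eq hF, Fin.rev_rev, ent_inv_self hg]

/-- The triangular group lies in any subgroup containing the unitriangular group and the tori. -/
theorem borel_le {H : Subgroup ↥(SUJ n F q)} (hU : (uni : Subgroup ↥(SUJ n F q)) ≤ H)
    (hshort : ∀ (i j : Fin n) (hi : Fin.rev i ≠ i) (hj : Fin.rev j ≠ j) (hij : i ≠ j), (j : ℕ) = i + 1 →
      j < Fin.rev j → ∀ a : F, a ≠ 0 → hh hF hi hj hij a ∈ H)
    (hlast : ∀ (k : Fin n) (hk : Fin.rev k ≠ k), k < Fin.rev k → n ≤ 2 * (k : ℕ) + 3 →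
      ∀ (a c δ : F) (hc0 : c ≠ 0) (hc : c + c ^ q + a ^ (q + 1) * μ n F q = 0) (hδ0 : δ ≠ 0)
        (hδ : δ + δ ^ q + (0 : F) ^ (q + 1) * μ n F q = 0),
        sl hF hk a c hc0 hc * sl hF hk 0 δ hδ0 hδ ∈ H) :
    (borel : Subgroup ↥(SUJ n F q)) ≤ H := by
  classical
  suffices ∀ (r t : ℕ), t + r = n → ∀ g ∈ (borel : Subgroup ↥(SUJ n F q)),
      (∀ i : Fin n, i < Fin.rev i → (i : ℕ) < t → ent g i i = 1) → g ∈ H from
    fun g hg => this n 0 (zero_add n) g hg fun i _ h => absurd h (Nat.not_lt_zero _)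
  intro r
  induction r with
  | zero =>
    intro t ht g hg h1
    refine hU (mem_uni_of_borel hg fun a => ?_)
    have hlow : ∀ a : Fin n, Fin.rev a ≠ a → ent g a a = 1 := by
      intro a ha
      rcases lt_or_gt_of_ne ha with h | h
      · have h2 := diag_rev hF hg (Fin.rev a)
        rw [Fin.rev_rev] at h2
        rw [h2, h1 _ (by rwa [Fin.rev_rev]) (by omega), inv_one, one_pow]
      · exact h1 a h (by omega)
    by_cases ha : Fin.rev a = a
    · have h2 := prod_diag hg
      rwa [Finset.prod_eq_single a (fun b _ hb => hlow b (fun e => hb (mid_unique e ha))) (by simp)] at h2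
    · exact hlow a ha
  | succ r ih =>
    intro t ht g hg h1
    let i : Fin n := ⟨t, by omega⟩
    by_cases hit : i < Fin.rev i
    swap
    · refine ih (t + 1) (by omega) g hg fun s hs hst => ?_
      rcases Nat.lt_succ_iff_lt_or_eq.1 hst with h | h
      · exact h1 s hs h
      · exact absurd (show i < Fin.rev i by rwa [show i = s from Fin.ext h.symm]) hit
    have hi : Fin.rev i ≠ i := top_ne hit
    have hiv : t < n - 1 - t := rev_val i ▸ (hit : (i : ℕ) < (Fin.rev i : Fin n))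
    have hd := diag_ne_zero hg i
    have step : ∀ h : ↥(SUJ n F q), h ∈ H → h ∈ (borel : Subgroup ↥(SUJ n F q)) → ent h i i = ent g i i →
        (∀ s : Fin n, s < Fin.rev s → (s : ℕ) < t → ent h s s = 1) → g ∈ H := by
      intro h hH hB hhi hhs
      have hm : h⁻¹ * g ∈ H := by
        refine ih (t + 1) (by omega) _ (Subgroup.mul_mem _ (Subgroup.inv_mem _ hB) hg) fun s hs hst => ?_
        rw [diag_mul (Subgroup.inv_mem _ hB) hg, ent_inv_self hB]
        rcases Nat.lt_succ_iff_lt_or_eq.1 hst with h' | h'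
        · rw [hhs s hs h', h1 s hs h', inv_one, one_mul]
        · rw [show s = i from Fin.ext h', hhi, inv_mul_cancel₀ hd]
      have := H.mul_mem hH hm
      rwa [mul_inv_cancel_left] at this
    by_cases hjt : t + 1 < n - 1 - (t + 1)
    · let j : Fin n := ⟨t + 1, by omega⟩
      have hjtop : j < Fin.rev j := show (j : ℕ) < (Fin.rev j : Fin n) by rw [rev_val]; exact hjt
      have hij : i ≠ j := by simp [i, j, Fin.ext_iff]
      have hne : j ≠ Fin.rev i := fun e => by
        have := congrArg Fin.val e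
        rw [rev_val] at this
        change t + 1 = n - 1 - t at this
        omega
      have hj := top_ne hjtop
      have hB : hh hF hi hj hij (ent g i i) ∈ (borel : Subgroup ↥(SUJ n F q)) := mem_borel_of_diag fun s => by
        by_cases e1 : s = i
        · exact ⟨_, by rw [e1]; exact hh_fst hF hi hj hij hne hd⟩
        by_cases e2 : s = j
        · exact ⟨_, by rw [e2]; exact hh_snd hF hi hj hij hne hd⟩
        by_cases e3 : s = Fin.rev i
        · exact ⟨_, by rw [e3]; exact hh_fst_rev hF hi hj hij hne hd⟩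
        by_cases e4 : s = Fin.rev j
        · exact ⟨_, by rw [e4]; exact hh_snd_rev hF hi hj hij hne hd⟩
        exact ⟨1, by rw [one_smul, hh_other hF hi hj hij hne hd e1 e2 e3 e4]⟩
      refine step _ (hshort i j hi hj hij rfl hjtop _ hd) hB
        (ent_of_diag (hh_fst hF hi hj hij hne hd)) fun s hs hst => ?_
      refine ent_of_diag ?_
      rw [one_smul]
      have hsv : (s : ℕ) < n - 1 - s := rev_val s ▸ (hs : (s : ℕ) < (Fin.rev s : Fin n))
      refine hh_other hF hi hj hij hne hd ?_ ?_ ?_ ?_ <;> intro e <;>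
        have e' := congrArg Fin.val e <;> simp only [rev_val, i, j] at e' <;> omega
    -- the last torus
    obtain ⟨δ, hδ0, hδ⟩ := exists_trace_zero_ne hF
    have hc0 : ent g i i * δ ^ q ≠ 0 := mul_ne_zero hd (pow_ne_zero _ hδ0)
    obtain ⟨a, hc⟩ : ∃ a : F, ent g i i * δ ^ q + (ent g i i * δ ^ q) ^ q + a ^ (q + 1) * μ n F q = 0 := by
      by_cases hm : ∃ s : Fin n, Fin.rev s = s
      · obtain ⟨s, hs⟩ := hm
        obtain ⟨a, ha⟩ := exists_norm_eq hF
          (a := -(ent g i i * δ ^ q + (ent g i i * δ ^ q) ^ q)) (by rw [neg_pow_q hF, trace_pow_q hF])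
        exact ⟨a, by rw [ha, mu_of_eq hF hs, mul_one, add_neg_cancel]⟩
      · push Not at hm
        refine ⟨0, ?_⟩
        have hone : ∀ s : Fin n, s ≠ i → s ≠ Fin.rev i → ent g s s = 1 := by
          intro s hs1 hs2
          rcases lt_or_gt_of_ne (hm s) with h | h
          · have h2 := diag_rev hF hg (Fin.rev s)
            rw [Fin.rev_rev] at h2
            rw [h2, h1 _ (by rwa [Fin.rev_rev]) ?_, inv_one, one_pow]
            have h3 : ((Fin.rev s : Fin n) : ℕ) ≠ t := fun e => hs2 (by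
              rw [show i = Fin.rev s from Fin.ext e.symm, Fin.rev_rev])
            have h4 : ((Fin.rev s : Fin n) : ℕ) < s := h
            rw [rev_val] at h3 h4 ⊢
            omega
          · refine h1 s h ?_
            have h3 : (s : ℕ) ≠ t := fun e => hs1 (Fin.ext e)
            have h4 : (s : ℕ) < (Fin.rev s : Fin n) := h
            rw [rev_val] at h4
            omega
        have h2 := prod_diag hg
        rw [Finset.prod_eq_mul i (Fin.rev i) hi.symm (fun s _ hs => hone s hs.1 hs.2) (by simp) (by simp),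
          diag_rev hF hg, inv_pow, ← div_eq_mul_inv, div_eq_one_iff_eq (pow_ne_zero _ hd)] at h2
        rw [pow_q_add_one_zero hF, zero_mul, add_zero, mul_pow, ← h2, pow_q_q hF]
        linear_combination (ent g i i) * hδ
    set τ := sl hF hi a (ent g i i * δ ^ q) hc0 hc * sl hF hi 0 δ hδ0 (trace_W_zero hF hδ) with hτdef
    have hτ1 : av τ (bv i) = ent g i i • bv i := by
      rw [hτdef, av_mul, sl_fst hF, av_smul, sl_snd hF, smul_smul]
      congr 1
      field_simp
    have hτo : ∀ s : Fin n, s ≠ i → s ≠ Fin.rev i → Fin.rev s ≠ s → av τ (bv s) = bv s := by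
      intro s e1 e2 e3
      rw [hτdef, av_mul, sl_other hF hi hδ0 _ e1 e2 (Or.inl e3), sl_other hF hi hc0 _ e1 e2 (Or.inl e3)]
    have hB : τ ∈ (borel : Subgroup ↥(SUJ n F q)) := mem_borel_of_diag fun s => by
      by_cases e1 : s = i
      · exact ⟨_, e1 ▸ hτ1⟩
      by_cases e2 : s = Fin.rev i
      · subst e2
        exact ⟨_, by rw [hτdef, av_mul, sl_snd hF, av_smul, sl_fst hF, smul_smul]⟩
      by_cases e3 : Fin.rev s = s
      · obtain ⟨ρ, hρ⟩ := sl_mid hF hi hc0 hc e3
        exact ⟨ρ, by rw [hτdef, av_mul, sl_other hF hi hδ0 _ e1 e2 (Or.inr rfl), hρ]⟩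
      exact ⟨1, by rw [one_smul, hτo s e1 e2 e3]⟩
    refine step τ (hlast i hi hit (by show n ≤ 2 * t + 3; omega) _ _ _ _ _ _ _) hB (ent_of_diag hτ1)
      fun s hs hst => ent_of_diag ?_
    rw [one_smul]
    have hsv : (s : ℕ) < n - 1 - s := rev_val s ▸ (hs : (s : ℕ) < (Fin.rev s : Fin n))
    refine hτo s (fun e => ?_) (fun e => ?_) (top_ne hs) <;>
      have e' := congrArg Fin.val e <;> simp only [rev_val, i] at e' <;> omega

section Image

variable {G : Type*} [Group G] [Finite G] (p : ℕ) [Fact p.Prime] [CharP F p]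
  (π : ↥(SUJ n F q) →* G) (hπ : Function.Surjective π) (hker : π.ker ≤ Subgroup.center ↥(SUJ n F q))

theorem center_eq_one (hn : 4 ≤ n) {z : ↥(SUJ n F q)} (hz : z ∈ Subgroup.center ↥(SUJ n F q)) {k : ℕ} (hk : z ^ (p ^ k) = 1) :
    z = 1 := by
  have hcomm : ∀ y : ↥(SUJ n F q), z * y = y * z := fun y => (Subgroup.mem_center_iff.1 hz y).symm
  have hb : z ∈ (borel : Subgroup ↥(SUJ n F q)) := mem_borel_of_normalizing hF fun u hu => by
    rwa [mul_assoc, ← hcomm, inv_mul_cancel_left]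
  have hzu := mem_uni_of_pow p hb hk
  let e0 : Fin n := ⟨0, by omega⟩
  have he : Fin.rev e0 ≠ e0 := fun e => by
    have := congrArg Fin.val e
    rw [rev_val] at this
    change n - 1 - 0 = 0 at this
    omega
  obtain ⟨γ, hγ, hzγ⟩ := center_uni hF hn hzu (fun y _ => hcomm y) (e0 := e0) rfl he
  obtain ⟨δ, hδ0, hδ⟩ := exists_trace_zero_ne hF
  have h := fix_top_of_comm hF hzu (rev_ne_rev he) hδ0 hδ (hcomm _)
  rw [hzγ, av_trv hF, antiH_bv_right hF, bv_self, mul_one, add_eq_left] at h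
  rw [hzγ]
  refine trv_eq_one hF _ hγ ?_
  simpa [bv_self] using congrFun h e0

include hker in
theorem mem_uni_of_map (hn : 4 ≤ n) {x u : ↥(SUJ n F q)} (hu : u ∈ (uni : Subgroup ↥(SUJ n F q))) {k : ℕ}
    (hx : x ^ (p ^ k) = 1) (h : π x = π u) : x ∈ (uni : Subgroup ↥(SUJ n F q)) := by
  have hz : x * u⁻¹ ∈ Subgroup.center ↥(SUJ n F q) :=
    hker (by rw [MonoidHom.mem_ker, map_mul, map_inv, h, mul_inv_cancel])
  have hcomm : Commute (x * u⁻¹) u := (Subgroup.mem_center_iff.1 hz u).symm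
  have h1 : (x * u⁻¹) ^ (p ^ (k + n)) = 1 := by
    have e : x ^ (p ^ (k + n)) = (x * u⁻¹) ^ (p ^ (k + n)) * u ^ (p ^ (k + n)) := by
      rw [← hcomm.mul_pow, inv_mul_cancel_right]
    have hu1 : u ^ (p ^ (k + n)) = 1 := by rw [pow_add, mul_comm, pow_mul, pow_uni p hu, one_pow]
    rw [pow_add, pow_mul, hx, one_pow, ← pow_add, hu1, mul_one] at e
    exact e.symm
  have := center_eq_one hF p hn hz h1
  rw [mul_inv_eq_one] at this
  exact this ▸ hu

include p hker in
theorem mem_borel_of_map_normalizer (hn : 4 ≤ n) {h : ↥(SUJ n F q)}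
    (hh : π h ∈ Subgroup.normalizer (((uni : Subgroup ↥(SUJ n F q)).map π : Subgroup G) : Set G)) :
    h ∈ (borel : Subgroup ↥(SUJ n F q)) := by
  refine mem_borel_of_normalizing hF fun u hu => ?_
  obtain ⟨u', hu', he⟩ := (Subgroup.mem_normalizer_iff''.1 hh (π u)).1 ⟨u, hu, rfl⟩
  refine mem_uni_of_map hF p π hker hn hu' (k := n) ?_ ?_
  · have e := conj_pow (a := h⁻¹) (b := u) (i := p ^ n)
    rw [inv_inv] at e
    rw [e, pow_uni p hu, mul_one, inv_mul_cancel]
  · rw [he, map_mul, map_mul, map_inv]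

omit hF in
theorem map_mem_normalizer {A : Subgroup ↥(SUJ n F q)} {t : ↥(SUJ n F q)} (h : ∀ a ∈ A, t * a * t⁻¹ ∈ A) :
    π t ∈ Subgroup.normalizer ((A.map π : Subgroup G) : Set G) := by
  refine Subgroup.mem_normalizer_fintype ?_
  rintro _ ⟨a, ha, rfl⟩
  exact ⟨t * a * t⁻¹, h a ha, by simp⟩

include hπ hker in
theorem rad_props (hn : 4 ≤ n) (S : Sylow p G) (hS : (S : Subgroup G) = (uni : Subgroup ↥(SUJ n F q)).map π)
    {f : Fin n → ℕ} (hf : Monotone f)
    (hcen : ∀ u ∈ (uni : Subgroup ↥(SUJ n F q)), (∀ r ∈ (rad f : Subgroup ↥(SUJ n F q)), u * r = r * u) → u ∈ (rad f : Subgroup ↥(SUJ n F q))) :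
    (Cfsg.groupFusionSystem (S : Subgroup G)).IsFullyNormalized ((rad f).map π) ∧
      (Cfsg.groupFusionSystem (S : Subgroup G)).IsCentric ((rad f).map π) := by
  set R := (rad f).map π with hR
  have hRS : R ≤ (S : Subgroup G) := hS ▸ Subgroup.map_mono (rad_le_uni hf)
  have hSN : (S : Subgroup G) ≤ Subgroup.normalizer (R : Set G) := by
    rw [hS]
    rintro _ ⟨u, hu, rfl⟩
    exact map_mem_normalizer π fun r hr => par_conj (uni_le_par hf hu) hr
  have hfn : (Cfsg.groupFusionSystem (S : Subgroup G)).IsFullyNormalized R := by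
    refine ⟨hRS, fun Q _ => ?_⟩
    rw [show Cfsg.FusionSystem.normalizerIn (S : Subgroup G) R = (S : Subgroup G) from
      inf_eq_left.2 hSN]
    exact Subgroup.card_le_of_le inf_le_left
  refine ⟨hfn, isCentric_of_fullyCentralized
    (fullyCentralized_of_fullyNormalized S.isPGroup' (isSaturated_group S) hfn) ?_⟩
  rintro x ⟨hxS, hx⟩
  rw [hS] at hxS
  obtain ⟨u, hu, rfl⟩ := hxS
  refine ⟨u, hcen u hu fun r hr => ?_, rfl⟩
  have h := hx (π r) ⟨r, hr, rfl⟩
  have hz : u * r * u⁻¹ * r⁻¹ ∈ Subgroup.center ↥(SUJ n F q) := hker (by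
    rw [MonoidHom.mem_ker, map_mul, map_mul, map_mul, map_inv, map_inv, ← h, mul_inv_cancel_right,
      mul_inv_cancel])
  have hr' := rad_le_uni hf hr
  have hm : u * r * u⁻¹ * r⁻¹ ∈ (uni : Subgroup ↥(SUJ n F q)) := Subgroup.mul_mem _
    (Subgroup.mul_mem _ (Subgroup.mul_mem _ hu hr') (Subgroup.inv_mem _ hu)) (Subgroup.inv_mem _ hr')
  have h1 := center_eq_one hF p hn hz (pow_uni p hm)
  rwa [mul_inv_eq_one, mul_inv_eq_iff_eq_mul] at h1

/-- A subgroup closed under the moves into the unitriangular group and containing a central element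
contains it. -/
theorem uni_le_of_moves (hn : 4 ≤ n) {M : Subgroup ↥(SUJ n F q)}
    (hmove : ∀ g x : ↥(SUJ n F q), x ∈ M → g * x * g⁻¹ ∈ (uni : Subgroup ↥(SUJ n F q)) → g * x * g⁻¹ ∈ M)
    {e0 : Fin n} (h0 : (e0 : ℕ) = 0) (he : Fin.rev e0 ≠ e0) {γ : F} (hγ0 : γ ≠ 0) (hγ : γ + γ ^ q = 0)
    (hx : trv hF (bv e0) (iso_bv hF he) γ hγ ∈ M) : (uni : Subgroup ↥(SUJ n F q)) ≤ M := by
  classical
  let e1 : Fin n := ⟨1, by omega⟩
  have he1t : e1 < Fin.rev e1 := show (e1 : ℕ) < (Fin.rev e1 : Fin n) by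
    rw [rev_val]; change 1 < n - 1 - 1; omega
  have he0t : e0 < Fin.rev e0 := show (e0 : ℕ) < (Fin.rev e0 : Fin n) by rw [rev_val, h0]; omega
  have he1 := top_ne he1t
  have h01 : e0 ≠ e1 := fun e => by rw [e] at h0; exact one_ne_zero h0
  have h01' : e1 ≠ Fin.rev e0 := fun e => by
    have := congrArg Fin.val e
    rw [rev_val, h0] at this
    change 1 = n - 1 - 0 at this
    omega
  have hT0 : ∀ (δ : F) (hδ : δ + δ ^ q = 0), trv hF (bv e0) (iso_bv hF he) δ hδ ∈ M := by
    intro δ hδ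
    by_cases hδ0 : δ = 0
    · rw [trv_eq_one hF _ hδ hδ0]; exact M.one_mem
    obtain ⟨l, hl⟩ := exists_norm_eq hF (a := δ / γ) (by
      rw [div_pow, eq_neg_of_add_eq_zero_right hδ, eq_neg_of_add_eq_zero_right hγ, neg_div_neg_eq])
    have hl0 : l ≠ 0 := fun e => by
      rw [e, pow_q_add_one_zero hF] at hl
      exact div_ne_zero hδ0 hγ0 hl.symm
    have e : hh hF he he1 h01 l * trv hF (bv e0) (iso_bv hF he) γ hγ * (hh hF he he1 h01 l)⁻¹ =
        trv hF (bv e0) (iso_bv hF he) δ hδ := by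
      rw [conj_trv hF]
      refine (trv_congr hF _ ?_ hγ hγ (hh_fst hF he he1 h01 h01' hl0) rfl).trans
        ((trv_smul hF _ (iso_bv hF he) hγ ?_).trans (trv_congr hF _ _ _ _ rfl ?_))
      · rw [antiH_smul_left, antiH_smul_right, iso_bv hF he, mul_zero, mul_zero]
      · rwa [hl, div_mul_cancel₀ _ hγ0]
      · rw [hl, div_mul_cancel₀ _ hγ0]
    exact e ▸ hmove _ _ hx (e ▸ trv_bv_mem_uni hF he0t hδ)
  have hTi : ∀ (i : Fin n) (hi : i < Fin.rev i) (δ : F) (hδ : δ + δ ^ q = 0),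
      trv hF (bv i) (iso_bv hF (top_ne hi)) δ hδ ∈ M := by
    intro i hi δ hδ
    by_cases hi0 : i = e0
    · subst hi0; exact hT0 δ hδ
    have hne : e0 ≠ Fin.rev i := fun e => he0t.not_gt (by rw [e, Fin.rev_rev]; exact hi)
    have e : sw hF (top_ne hi) he hi0 1 * trv hF (bv e0) (iso_bv hF he) δ hδ *
        (sw hF (top_ne hi) he hi0 1)⁻¹ = trv hF (bv i) (iso_bv hF (top_ne hi)) δ hδ := by
      rw [conj_trv hF]
      exact trv_congr hF _ _ hδ hδ
        ((sw_snd hF (top_ne hi) he hi0 hne one_ne_zero).trans (one_smul F _)) rfl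
    exact e ▸ hmove _ _ (hT0 δ hδ) (e ▸ trv_bv_mem_uni hF hi hδ)
  have hTv : ∀ (k l : Fin n) (hk : k < Fin.rev k) (hl : l < Fin.rev l), k ≠ l → ∀ (s δ : F)
      (hv : antiH q (bv k + s • bv l : Fin n → F) (bv k + s • bv l) = 0) (hδ : δ + δ ^ q = 0),
      trv hF (bv k + s • bv l) hv δ hδ ∈ M := by
    intro k l hk hl hkl s δ hv hδ
    have hne : k ≠ Fin.rev l := fun e => hk.not_gt (by rw [e, Fin.rev_rev]; exact hl)
    have e : X hF (top_ne hl) (top_ne hk) hkl.symm s * trv hF (bv k) (iso_bv hF (top_ne hk)) δ hδ *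
        (X hF (top_ne hl) (top_ne hk) hkl.symm s)⁻¹ = trv hF (bv k + s • bv l) hv δ hδ := by
      rw [conj_trv hF]
      refine trv_congr hF _ _ hδ hδ ?_ rfl
      rw [av_X hF, bv_self, bv_ne hne.symm, mul_zero, zero_smul, mul_one, sub_zero]
    refine e ▸ hmove _ _ (hTi k hk δ hδ) (e ▸ trv_mem_uni hF (fun t ht => ?_) hv hδ)
    simp [bv_top hk t ht, bv_top hl t ht]
  have hXb : ∀ (k l : Fin n) (hk : Fin.rev k ≠ k) (hl : Fin.rev l ≠ l) (hkl : k ≠ l), k < Fin.rev k →
      Fin.rev l < l → l ≠ Fin.rev k → ∀ a, X hF hk hl hkl a ∈ M := by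
    intro k l hk hl hkl hkt hlt hlk a
    obtain ⟨δ, hδ0, hδ⟩ := exists_trace_zero_ne hF
    have hlt' : Fin.rev l < Fin.rev (Fin.rev l) := by rwa [Fin.rev_rev]
    have hne : k ≠ Fin.rev l := fun e => hlk (by rw [e, Fin.rev_rev])
    set s := -(a ^ q) / δ with hs
    have hsq : δ * s ^ q = a := by
      rw [hs, div_pow, neg_pow_q hF, pow_q_q hF, eq_neg_of_add_eq_zero_right hδ]
      field_simp
    have hs1 : δ * s = -(a ^ q) := by rw [hs]; field_simp
    have htr : -(s ^ (q + 1) * δ) + (-(s ^ (q + 1) * δ)) ^ q = 0 := by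
      rw [neg_pow_q hF, mul_pow, norm_pow_q hF, eq_neg_of_add_eq_zero_right hδ]; ring
    have htr' : -δ + (-δ) ^ q = 0 := by rw [neg_pow_q hF, ← neg_add, hδ, neg_zero]
    have hv : antiH q (bv k + s • bv (Fin.rev l) : Fin n → F) (bv k + s • bv (Fin.rev l)) = 0 :=
      iso_of_top hF (fun t ht => by simp [bv_top hkt t ht, bv_top hlt' t ht])
        (fun t ht => by simp [bv_top hkt t ht, bv_top hlt' t ht])
    have e : X hF hk hl hkl a = trv hF (bv k + s • bv (Fin.rev l)) hv δ hδ *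
        (trv hF (bv k) (iso_bv hF hk) (-δ) htr' *
          trv hF (bv (Fin.rev l)) (iso_bv hF (rev_ne_rev hl)) (-(s ^ (q + 1) * δ)) htr) := by
      refine av_ext fun x => ?_
      rw [av_mul, av_mul, av_X hF, av_trv hF, av_trv hF, av_trv hF]
      simp only [antiH_add_right hF, antiH_smul_right, antiH_bv_right hF, Pi.add_apply, Pi.smul_apply,
        smul_eq_mul, Fin.rev_rev, bv_ne hk, bv_ne hne.symm, bv_ne hlk,
        bv_ne hl.symm, bv_ne hkl.symm, bv_ne (fun e => hkl (Fin.rev_injective e) : Fin.rev k ≠ Fin.rev l)]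
      rw [pow_succ, ← hsq, show (δ * s ^ q) ^ q = -(δ * s) by
        rw [mul_pow, pow_q_q hF, eq_neg_of_add_eq_zero_right hδ, neg_mul]]
      module
    rw [e]
    exact M.mul_mem (hTv k _ hkt hlt' hne s δ hv hδ) (M.mul_mem (hTi k hkt _ htr') (hTi _ hlt' _ htr))
  have hXt : ∀ (k l : Fin n) (hk : Fin.rev k ≠ k) (hl : Fin.rev l ≠ l) (hkl : k ≠ l), k < l →
      k < Fin.rev k → l < Fin.rev l → ∀ a, X hF hk hl hkl a ∈ M := by
    intro k l hk hl hkl hlt hkt hlt' a
    obtain ⟨δ, hδ0, hδ⟩ := exists_trace_zero_ne hF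
    have hne : k ≠ Fin.rev l := fun e => hkt.not_gt (by rw [e, Fin.rev_rev]; exact hlt')
    have hW0 := trace_W_zero (n := n) hF hδ
    have hXm := hXb k (Fin.rev l) hk (rev_ne_rev hl) hne hkt (by rwa [Fin.rev_rev])
      (fun e => hkl (Fin.rev_injective e).symm) (a * δ)
    have e : sl hF hl 0 δ hδ0 hW0 * X hF hk (rev_ne_rev hl) hne (a * δ) * (sl hF hl 0 δ hδ0 hW0)⁻¹ =
        X hF hk hl hkl a := by
      have hE1 : av (sl hF hl 0 δ hδ0 hW0) ((a * δ) • bv k) = (a * δ) • bv k := by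
        rw [av_smul, sl_other hF hl hδ0 _ hkl hne (Or.inr rfl)]
      have hE2 : av (sl hF hl 0 δ hδ0 hW0) (bv (Fin.rev (Fin.rev l))) = (δ ^ q)⁻¹ • bv (Fin.rev l) := by
        rw [Fin.rev_rev, sl_fst hF]
      have hm : ((δ ^ q)⁻¹) ^ q * (a * δ) = a := by
        rw [inv_pow, pow_q_q hF]; field_simp
      rw [X, conj_eich]
      refine (eich_congr hF _ ?_ hE1 hE2 rfl).trans
        ((eich_zero_smul hF _ ?_).trans (eich_congr hF _ _ (by rw [hm]) rfl rfl))
      · have := (isEich_X hF hk (rev_ne_rev hl) hne (a * δ)).map (sl hF hl 0 δ hδ0 hW0)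
        rwa [hE1, hE2] at this
      · rw [hm]; exact isEich_X hF hk hl hkl a
    exact e ▸ hmove _ _ hXm (e ▸ X_mem_uni hF hk hl hkl hlt a)
  have hXall : ∀ (k l : Fin n) (hk : Fin.rev k ≠ k) (hl : Fin.rev l ≠ l) (hkl : k ≠ l), k < l →
      l ≠ Fin.rev k → ∀ a, X hF hk hl hkl a ∈ M := by
    intro k l hk hl hkl hlt hlk a
    rcases lt_or_gt_of_ne hk with hkb | hkt
    · have hlb : Fin.rev l < l := lt_trans (Fin.rev_lt_rev.2 hlt) (lt_trans hkb hlt)
      rw [X_rev hF hk hl hkl (fun e => hkl (Fin.rev_injective e).symm)]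
      exact hXt _ _ _ _ _ (Fin.rev_lt_rev.2 hlt) (by rwa [Fin.rev_rev]) (by rwa [Fin.rev_rev]) _
    · rcases lt_or_gt_of_ne hl with hlb | hlt'
      · exact hXb k l hk hl hkl hkt hlb hlk a
      · exact hXt k l hk hl hkl hlt hkt hlt' a
  let P : (Fin n → F) → Prop := fun w => ∃ (c : F) (h : IsEich q (bv e0) w c), eich hF (bv e0) w c h ∈ M
  have hPadd : ∀ w w', P w → P w' → P (w + w') := by
    rintro w w' ⟨c, h, hm⟩ ⟨c', h', hm'⟩
    have h'' : IsEich q (bv e0) (w + w') (c + c' - antiH q w' w) := by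
      refine ⟨h.iso, by rw [antiH_add_right hF, h.perp, h'.perp, add_zero], ?_⟩
      rw [sub_pow_q hF, add_pow_q hF, ← antiH_conj hF, antiH_add_left, antiH_add_right hF, antiH_add_right hF]
      linear_combination h.trace + h'.trace
    exact ⟨_, h'', eich_mul hF h h' h'' ▸ M.mul_mem hm hm'⟩
  have hPX : ∀ (l : Fin n) (hl : Fin.rev l ≠ l) (hel : e0 ≠ l) (t : F), X hF he hl hel t ∈ M →
      P (t ^ q • bv (Fin.rev l)) := by
    intro l hl hel t hm
    have h' : IsEich q (bv e0) (t ^ q • bv (Fin.rev l)) (t ^ (q + 1) * (0 : F)) := by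
      refine ⟨iso_bv hF he, ?_, ?_⟩
      · rw [antiH_smul_right, antiH_bv_bv hF, Fin.rev_rev, if_neg hel.symm, mul_zero]
      · rw [antiH_smul_left, antiH_smul_right, antiH_bv_bv hF, Fin.rev_rev, if_neg hl.symm, mul_zero,
          mul_zero, mul_zero, zero_pow_q hF, add_zero, add_zero]
    exact ⟨_, h', eich_smul hF (isEich_X hF he hl hel t) h' ▸ hm⟩
  have hW0 : ∀ (a c : F) (hc : c + c ^ q + a ^ (q + 1) * μ n F q = 0), W hF he a c hc ∈ M := by
    intro a c hc
    obtain ⟨c1, hc1⟩ := exists_trace_param hF (n := n) (-a)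
    have hWu := W_mem_uni hF he1 he1t (-a) c1 hc1
    have hX1 := hXall e0 e1 he he1 h01 (show (e0 : ℕ) < e1 by rw [h0]; exact Nat.one_pos) h01' 1
    have hxu := X_mem_uni hF he he1 h01 (show (e0 : ℕ) < e1 by rw [h0]; exact Nat.one_pos) 1
    have hY := hmove (W hF he1 (-a) c1 hc1) _ hX1
      (Subgroup.mul_mem _ (Subgroup.mul_mem _ hWu hxu) (Subgroup.inv_mem _ hWu))
    rw [X, conj_eich] at hY
    have hE1 : av (W hF he1 (-a) c1 hc1) ((1 : F) • bv e0) = bv e0 := by
      rw [one_smul, av_W hF, antiH_bv_midV hF, midV_of_ne he,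
        bv_ne (show Fin.rev e1 ≠ e0 from fun e => h01' (by rw [← e, Fin.rev_rev]))]
      simp
    have hE2 : av (W hF he1 (-a) c1 hc1) (bv (Fin.rev e1)) =
        bv (Fin.rev e1) + c1 • bv e1 + a • (midV : Fin n → F) := by
      rw [av_W hF, antiH_bv_midV hF, midV_rev, midV_of_ne he1, bv_self]
      module
    have hP1 : P (bv (Fin.rev e1) + c1 • bv e1 + a • (midV : Fin n → F)) := by
      refine ⟨0, ?_, ?_⟩
      · have := (isEich_X hF he he1 h01 (1 : F)).map (W hF he1 (-a) c1 hc1)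
        rwa [hE1, hE2] at this
      · rwa [eich_congr hF _ _ hE1 hE2 rfl] at hY
    have hP2 := hPX e1 he1 h01 (-1)
      (hXall e0 e1 he he1 h01 (show (e0 : ℕ) < e1 by rw [h0]; exact Nat.one_pos) h01' _)
    have hlt2 : e0 < Fin.rev e1 := lt_trans (show (e0 : ℕ) < e1 by rw [h0]; exact Nat.one_pos) he1t
    have hP3 := hPX (Fin.rev e1) (rev_ne_rev he1) hlt2.ne ((-c1) ^ q)
      (hXall e0 _ he (rev_ne_rev he1) hlt2.ne hlt2 (fun e => h01 (Fin.rev_injective e).symm) _)
    rw [pow_q_q hF, Fin.rev_rev] at hP3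
    rw [neg_pow_q hF, one_pow] at hP2
    obtain ⟨c', h', hm'⟩ := hPadd _ _ (hPadd _ _ hP1 hP2) hP3
    have hwe : bv (Fin.rev e1) + c1 • bv e1 + a • (midV : Fin n → F) + (-1 : F) • bv (Fin.rev e1) +
        (-c1) • bv e1 = a • midV := by module
    have hh' : IsEich q (bv e0) (a • (midV : Fin n → F)) c' := hwe ▸ h'
    rw [eich_congr hF h' hh' rfl hwe rfl] at hm'
    have hd : c - c' + (c - c') ^ q = 0 := by
      rw [sub_pow_q hF]
      have h1 := (isEich_W hF he hc).trace
      have h2 := hh'.trace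
      linear_combination h1 - h2
    have h'' : IsEich q (bv e0) (a • (midV : Fin n → F) + 0) (c' + (c - c') - antiH q 0 (a • (midV : Fin n → F))) := by
      rw [add_zero, antiH_zero_left, sub_zero, add_sub_cancel]
      exact isEich_W hF he hc
    have hm2 := M.mul_mem hm' (hT0 _ hd)
    rw [trv, eich_mul hF hh' (isEich_trv hF (iso_bv hF he) hd) h''] at hm2
    rw [W, eich_congr hF (isEich_W hF he hc) h'' rfl (add_zero _).symm
      (by rw [antiH_zero_left, sub_zero, add_sub_cancel])]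
    exact hm2
  refine uni_le hF hXall fun k hk hkt a c hc => ?_
  by_cases hk0 : k = e0
  · subst hk0; exact hW0 a c hc
  have hne : e0 ≠ Fin.rev k := fun e => he0t.not_gt (by rw [e, Fin.rev_rev]; exact hkt)
  have e : sw hF hk he hk0 1 * W hF he a c hc * (sw hF hk he hk0 1)⁻¹ = W hF hk a c hc := by
    rw [W, conj_eich]
    exact eich_congr hF _ _ ((sw_snd hF hk he hk0 hne one_ne_zero).trans (one_smul F _))
      (by rw [av_smul, sw_midV hF hk he hk0 hne one_ne_zero]) rfl
  exact e ▸ hmove _ _ (hW0 a c hc) (e ▸ W_mem_uni hF hk hkt a c hc)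

include hπ hker in
/-- The fusion system of a central quotient of `SU_n(q)` is simple. -/
theorem isSimple_image (hn : 4 ≤ n) (S : Sylow p G)
    (hS : (S : Subgroup G) = (uni : Subgroup ↥(SUJ n F q)).map π) :
    (Cfsg.groupFusionSystem (S : Subgroup G)).IsSimple p := by
  classical
  set 𝓕 := Cfsg.groupFusionSystem (S : Subgroup G) with h𝓕
  let e0 : Fin n := ⟨0, by omega⟩
  have he0t : e0 < Fin.rev e0 := show (e0 : ℕ) < (Fin.rev e0 : Fin n) by
    rw [rev_val]; change 0 < n - 1 - 0; omega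
  have he := top_ne he0t
  have hpx : ∀ u ∈ (uni : Subgroup ↥(SUJ n F q)), π u = 1 → u = 1 := fun u hu h =>
    center_eq_one hF p hn (hker h) (pow_uni p hu)
  have hS1 : (S : Subgroup G) ≠ ⊥ := by
    rw [hS]
    intro h
    obtain ⟨δ, hδ0, hδ⟩ := exists_trace_zero_ne hF
    have hu := trv_bv_mem_uni hF he0t hδ
    have h1 : π (trv hF (bv e0) (iso_bv hF he) δ hδ) = 1 :=
      Subgroup.mem_bot.1 (h ▸ Subgroup.mem_map_of_mem π hu)
    have h2 := congrFun (congrArg (fun g => av g (bv (Fin.rev e0))) (hpx _ hu h1)) e0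
    simp [av_trv hF, antiH_bv_right hF, bv_ne he.symm, hδ0] at h2
  refine CfsgLib.Fus.NormalOverSylow.isSimple_of_generated S (isSaturated_group S) hS1 ?_ ?_
  · intro T hT
    by_cases hT1 : T = ⊥
    · exact Or.inl hT1
    refine Or.inr (le_antisymm hT.1 ?_)
    have hclosed : ∀ (g x : G), x ∈ T → g * x * g⁻¹ ∈ (S : Subgroup G) → g * x * g⁻¹ ∈ T := by
      intro g x hx hgx
      have hmem : Cfsg.conjHom (Subgroup.zpowers x) g ∈ 𝓕.Hom (Subgroup.zpowers x) := by
        refine CfsgLib.Fus.NormalOverSylow.conjHom_mem_group ((Subgroup.zpowers_le.2 hx).trans hT.1) ?_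
        rintro _ ⟨k, rfl⟩
        show g * x ^ k * g⁻¹ ∈ (S : Subgroup G)
        rw [← conj_zpow]
        exact Subgroup.zpow_mem _ hgx k
      exact hT.2 _ (Subgroup.zpowers_le.2 hx) _ hmem ⟨x, Subgroup.mem_zpowers x⟩
    set T' := T.subgroupOf (S : Subgroup G) with hT'
    haveI : T'.Normal := ⟨fun a ha s =>
      hclosed s a ha (S.mul_mem (S.mul_mem s.2 a.2) (S.inv_mem s.2))⟩
    have hT'1 : Nontrivial T' := (Subgroup.nontrivial_iff_ne_bot _).2 fun h => hT1 (by
      rw [hT', Subgroup.subgroupOf_eq_bot, disjoint_iff, inf_eq_left.2 hT.1] at h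
      exact h)
    obtain ⟨x, hxT, hx1, hxc⟩ : ∃ x, x ∈ T ∧ x ≠ 1 ∧ ∀ s ∈ (S : Subgroup G), s * x = x * s := by
      have hZ : IsPGroup p (S : Subgroup G) := S.isPGroup'
      have hTp : IsPGroup p T' := S.isPGroup'.to_subgroup T'
      obtain ⟨k, hk⟩ := hTp.exists_card_eq
      have hdvd : p ∣ Nat.card T' := by
        rcases Nat.eq_zero_or_pos k with h0 | h0
        · rw [h0, pow_zero] at hk
          exact absurd hk (Finite.one_lt_card (α := T')).ne'
        · exact hk ▸ dvd_pow_self p h0.ne'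
      letI : MulAction (S : Subgroup G) T' := MulAction.compHom _
        (MulAut.conjNormal : (S : Subgroup G) →* MulAut T')
      obtain ⟨b, hb, hb1⟩ := hZ.exists_fixed_point_of_prime_dvd_card_of_fixed_point T' hdvd (a := 1)
        (fun s => map_one (MulAut.conjNormal s : MulAut T'))
      refine ⟨((b : (S : Subgroup G)) : G), b.2, fun h => hb1 (Subtype.ext (Subtype.ext h.symm)),
        fun s hs => ?_⟩
      have h2 := congrArg (fun t : T' => (((t : (S : Subgroup G))) : G)) (hb ⟨s, hs⟩)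
      exact mul_inv_eq_iff_eq_mul.1 h2
    obtain ⟨u, hu, rfl⟩ : x ∈ (uni : Subgroup ↥(SUJ n F q)).map π := hS ▸ hT.1 hxT
    have huc : ∀ y ∈ (uni : Subgroup ↥(SUJ n F q)), u * y = y * u := by
      intro y hy
      have h := hxc (π y) (hS ▸ ⟨y, hy, rfl⟩)
      have h1 : π (u * y * u⁻¹ * y⁻¹) = 1 := by
        rw [map_mul, map_mul, map_mul, map_inv, map_inv, ← h, mul_inv_cancel_right, mul_inv_cancel]
      have h2 := hpx _ (Subgroup.mul_mem _ (Subgroup.mul_mem _ (Subgroup.mul_mem _ hu hy)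
        (Subgroup.inv_mem _ hu)) (Subgroup.inv_mem _ hy)) h1
      rwa [mul_inv_eq_one, mul_inv_eq_iff_eq_mul] at h2
    obtain ⟨γ, hγ, rfl⟩ := center_uni hF hn hu huc (e0 := e0) rfl he
    have hγ0 : γ ≠ 0 := fun h => hx1 (by rw [trv_eq_one hF _ hγ h, map_one])
    rw [hS, Subgroup.map_le_iff_le_comap]
    refine uni_le_of_moves hF hn (M := T.comap π) (fun g x hx hy => ?_) rfl he hγ0 hγ hxT
    have := hclosed (π g) (π x) hx (by
      rw [← map_inv, ← map_mul, ← map_mul, hS]; exact ⟨_, hy, rfl⟩)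
    rwa [← map_inv, ← map_mul, ← map_mul] at this
  · set Sup := ⨆ (R : Subgroup G)
      (_ : 𝓕.IsFullyNormalized R ∧ 𝓕.IsCentric R),
      Cfsg.autInducedBy (Subgroup.closure
        {g : G | g ∈ Subgroup.normalizer (R : Set G) ∧ ∃ k : ℕ, orderOf g = p ^ k})
        (S : Subgroup G) with hSup
    let J : Subgroup ↥(SUJ n F q) :=
      ((Sup.comap (S : Subgroup G).normalizerMonoidHom).map
        (Subgroup.normalizer ((S : Subgroup G) : Set G)).subtype).comap π
    have hJ : ∀ (R : Subgroup G), 𝓕.IsFullyNormalized R ∧ 𝓕.IsCentric R → ∀ g : ↥(SUJ n F q),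
        π g ∈ Subgroup.normalizer ((S : Subgroup G) : Set G) →
        π g ∈ Subgroup.closure
          {g : G | g ∈ Subgroup.normalizer (R : Set G) ∧ ∃ k : ℕ, orderOf g = p ^ k} → g ∈ J := by
      intro R hR g hgS hg
      refine ⟨⟨π g, hgS⟩, ?_, rfl⟩
      exact (le_iSup₂_of_le (f := fun (R : Subgroup G) (_ : 𝓕.IsFullyNormalized R ∧ 𝓕.IsCentric R) =>
        Cfsg.autInducedBy (Subgroup.closure
          {g : G | g ∈ Subgroup.normalizer (R : Set G) ∧ ∃ k : ℕ, orderOf g = p ^ k})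
          (S : Subgroup G)) R hR le_rfl) (conjAut_mem_autInducedBy hgS hg)
    have hord : ∀ (x : ↥(SUJ n F q)) (m : ℕ), x ^ (p ^ m) = 1 → ∃ k, orderOf (π x) = p ^ k := fun x m hx =>
      ((Nat.dvd_prime_pow (Fact.out : p.Prime)).1 (orderOf_dvd_of_pow_eq_one
        (show (π x) ^ (p ^ m) = 1 by rw [← map_pow, hx, map_one]))).imp fun _ h => h.2
    have hU : (uni : Subgroup ↥(SUJ n F q)) ≤ J := by
      intro u hu
      have huS : π u ∈ (S : Subgroup G) := hS ▸ ⟨u, hu, rfl⟩
      exact hJ _ ⟨isFullyNormalized_top 𝓕, isCentric_top 𝓕⟩ u (Subgroup.le_normalizer huS)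
        (Subgroup.subset_closure ⟨Subgroup.le_normalizer huS, hord u _ (pow_uni p hu)⟩)
    have hnorm : ∀ g ∈ (borel : Subgroup ↥(SUJ n F q)), π g ∈ Subgroup.normalizer ((S : Subgroup G) : Set G) := by
      intro g hg
      rw [hS]
      exact map_mem_normalizer π fun u hu => par_conj hg hu
    have hshort : ∀ (i j : Fin n) (hi : Fin.rev i ≠ i) (hj : Fin.rev j ≠ j) (hij : i ≠ j),
        (j : ℕ) = i + 1 → j < Fin.rev j → ∀ a : F, a ≠ 0 → hh hF hi hj hij a ∈ J := by
      intro i j hi hj hij hijv hjt a ha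
      have hjv : (j : ℕ) < n - 1 - j := rev_val j ▸ (hjt : (j : ℕ) < (Fin.rev j : Fin n))
      have hmono := shortF_mono hijv hjt
      have hilt : i < j := show (i : ℕ) < j by omega
      have hne : j ≠ Fin.rev i := fun e => by
        have := congrArg Fin.val e
        rw [rev_val] at this
        omega
      set C := Subgroup.closure
        {g : G | g ∈ Subgroup.normalizer (((rad (shortF i) : Subgroup ↥(SUJ n F q)).map π : Subgroup G) : Set G) ∧
          ∃ k : ℕ, orderOf g = p ^ k}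
      have hpar : ∀ (b : F), X hF hj hi hij.symm b ∈ (par (shortF i) : Subgroup ↥(SUJ n F q)) := by
        intro b
        refine mem_par_of_bv fun s t hst => ?_
        have hts : t ≠ s := fun e => by rw [e] at hst; exact lt_irrefl _ hst
        rw [av_X hF]
        simp only [Pi.add_apply, Pi.sub_apply, Pi.smul_apply, smul_eq_mul, bv_apply, if_neg hts]
        have h1 : ¬ (t = j ∧ i = s) := by
          rintro ⟨rfl, rfl⟩; unfold shortF at hst; split_ifs at hst <;> omega
        have h2 : ¬ (t = Fin.rev i ∧ Fin.rev j = s) := by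
          rintro ⟨rfl, rfl⟩
          unfold shortF at hst
          simp only [rev_val] at hst
          split_ifs at hst <;> omega
        split_ifs <;> simp_all
      have hpos : ∀ b : F, π (X hF hi hj hij b) ∈ C := fun b =>
        Subgroup.subset_closure ⟨map_mem_normalizer π fun r hr =>
          par_conj (uni_le_par hmono (X_mem_uni hF hi hj hij hilt b)) hr, hord _ 2 (pow_eich hF p _)⟩
      have hneg : ∀ b : F, π (X hF hj hi hij.symm b) ∈ C := fun b =>
        Subgroup.subset_closure ⟨map_mem_normalizer π fun r hr => par_conj (hpar b) hr,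
          hord _ 2 (pow_eich hF p _)⟩
      refine hJ _ (rad_props hF p π hπ hker hn S hS hmono fun u hu hc =>
        short_centric hF hijv hjt hu hc) _ ?_ ?_
      · refine hnorm _ (mem_borel_of_diag fun s => ?_)
        by_cases e1 : s = i
        · exact ⟨_, by rw [e1]; exact hh_fst hF hi hj hij hne ha⟩
        by_cases e2 : s = j
        · exact ⟨_, by rw [e2]; exact hh_snd hF hi hj hij hne ha⟩
        by_cases e3 : s = Fin.rev i
        · exact ⟨_, by rw [e3]; exact hh_fst_rev hF hi hj hij hne ha⟩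
        by_cases e4 : s = Fin.rev j
        · exact ⟨_, by rw [e4]; exact hh_snd_rev hF hi hj hij hne ha⟩
        exact ⟨1, by rw [one_smul, hh_other hF hi hj hij hne ha e1 e2 e3 e4]⟩
      · rw [hh, sw, sw]
        simp only [map_mul]
        exact mul_mem (mul_mem (mul_mem (hpos _) (hneg _)) (hpos _))
          (mul_mem (mul_mem (hpos _) (hneg _)) (hpos _))
    have hlast : ∀ (k : Fin n) (hk : Fin.rev k ≠ k), k < Fin.rev k → n ≤ 2 * (k : ℕ) + 3 →
        ∀ (a c δ : F) (hc0 : c ≠ 0) (hc : c + c ^ q + a ^ (q + 1) * μ n F q = 0) (hδ0 : δ ≠ 0)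
          (hδ : δ + δ ^ q + (0 : F) ^ (q + 1) * μ n F q = 0),
          sl hF hk a c hc0 hc * sl hF hk 0 δ hδ0 hδ ∈ J := by
      intro k hk hkt hkn a c δ hc0 hc hδ0 hδ
      have hkv : (k : ℕ) < n - 1 - k := rev_val k ▸ (hkt : (k : ℕ) < (Fin.rev k : Fin n))
      have hmono := lastF_mono hkt
      set C := Subgroup.closure
        {g : G | g ∈ Subgroup.normalizer (((rad (lastF k) : Subgroup ↥(SUJ n F q)).map π : Subgroup G) : Set G) ∧
          ∃ k : ℕ, orderOf g = p ^ k}
      have hpar : ∀ (b d : F) (hbd : d + d ^ q + b ^ (q + 1) * μ n F q = 0),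
          W hF (rev_ne_rev hk) b d hbd ∈ (par (lastF k) : Subgroup ↥(SUJ n F q)) := by
        intro b d hbd
        refine mem_par_of_bv fun s t hst => ?_
        have hts : t ≠ s := fun e => by rw [e] at hst; exact lt_irrefl _ hst
        have h1 : ¬ (t = Fin.rev k ∧ (k = s ∨ Fin.rev s = s)) := by
          rintro ⟨rfl, rfl | h⟩
          · unfold lastF at hst; simp only [rev_val] at hst; split_ifs at hst <;> omega
          · have := congrArg Fin.val h
            rw [rev_val] at this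
            unfold lastF at hst; simp only [rev_val] at hst; split_ifs at hst <;> omega
        have h3 : ¬ (Fin.rev t = t ∧ k = s) := by
          rintro ⟨h, rfl⟩
          have := congrArg Fin.val h
          rw [rev_val] at this
          unfold lastF at hst; split_ifs at hst <;> omega
        rw [av_W hF, antiH_bv_midV hF, Fin.rev_rev]
        simp only [Pi.add_apply, Pi.sub_apply, Pi.smul_apply, smul_eq_mul, bv_ne hts, bv_apply s k]
        by_cases hks : k = s
        · have ht : t ≠ Fin.rev k := fun e => h1 ⟨e, Or.inl hks⟩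
          have htm : Fin.rev t ≠ t := fun e => h3 ⟨e, hks⟩
          rw [bv_ne ht, midV_of_ne htm]
          simp
        · by_cases hsm : Fin.rev s = s
          · have ht : t ≠ Fin.rev k := fun e => h1 ⟨e, Or.inr hsm⟩
            simp [if_neg hks, bv_ne ht]
          · simp [if_neg hks, midV_of_ne hsm, zero_pow_q hF]
      have hpos : ∀ (b d : F) (hbd : d + d ^ q + b ^ (q + 1) * μ n F q = 0),
          π (W hF hk b d hbd) ∈ C := fun b d hbd =>
        Subgroup.subset_closure ⟨map_mem_normalizer π fun r hr =>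
          par_conj (uni_le_par hmono (W_mem_uni hF hk hkt b d hbd)) hr, hord _ 2 (pow_eich hF p _)⟩
      have hneg : ∀ (b d : F) (hbd : d + d ^ q + b ^ (q + 1) * μ n F q = 0),
          π (W hF (rev_ne_rev hk) b d hbd) ∈ C := fun b d hbd =>
        Subgroup.subset_closure ⟨map_mem_normalizer π fun r hr => par_conj (hpar b d hbd) hr,
          hord _ 2 (pow_eich hF p _)⟩
      refine hJ _ (rad_props hF p π hπ hker hn S hS hmono fun u hu hc =>
        last_centric hF hkt hkn (e0 := e0) rfl (by omega) hu hc) _ ?_ ?_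
      · refine hnorm _ (mem_borel_of_diag fun s => ?_)
        by_cases e1 : s = k
        · exact ⟨_, by rw [e1, av_mul, sl_fst hF, av_smul, sl_snd hF, smul_smul]⟩
        by_cases e2 : s = Fin.rev k
        · exact ⟨_, by rw [e2, av_mul, sl_snd hF, av_smul, sl_fst hF, smul_smul]⟩
        by_cases e3 : Fin.rev s = s
        · obtain ⟨ρ, hρ⟩ := sl_mid hF hk hc0 hc e3
          exact ⟨ρ, by rw [av_mul, sl_other hF hk hδ0 hδ e1 e2 (Or.inr rfl), hρ]⟩
        exact ⟨1, by rw [one_smul, av_mul, sl_other hF hk hδ0 hδ e1 e2 (Or.inl e3),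
          sl_other hF hk hc0 hc e1 e2 (Or.inl e3)]⟩
      · rw [sl, sl]
        simp only [map_mul]
        exact mul_mem (mul_mem (mul_mem (hneg _ _ _) (hpos _ _ _)) (hneg _ _ _))
          (mul_mem (mul_mem (hneg _ _ _) (hpos _ _ _)) (hneg _ _ _))
    have hB : (borel : Subgroup ↥(SUJ n F q)) ≤ J := borel_le hF hU hshort hlast
    intro α hα
    obtain ⟨g, -, hg⟩ := mem_autInducedBy_iff.1 hα
    have hgS := mem_normalizer_of_aut hg
    obtain ⟨h, rfl⟩ := hπ g
    obtain ⟨⟨g', hg'⟩, hg'Sup, hgg'⟩ :=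
      hB (mem_borel_of_map_normalizer hF p π hker hn (hS ▸ hgS))
    have e : α = (S : Subgroup G).normalizerMonoidHom ⟨g', hg'⟩ := by
      refine MulEquiv.ext fun x => Subtype.ext ?_
      rw [hg x]
      have hgg'' : g' = π h := hgg'
      subst hgg''
      rfl
    rw [e]
    exact hg'Sup

end Image

end CfsgLib.Unitary.Anti.FusionSimple
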